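import Cfsg.Agent.S1065
import Mathlib.GroupTheory.Sylow

/-!
# The elements of order `127` of `E8(2)` (helper422)

A Sylow `127`-subgroup of `E8(2)` has order `127`, hence two elements of order `127` are conjugate up to a power.
-/

set_option autoImplicit false

namespace Cfsg.Agent.H422.TW

universe u

/-- if `p²` does not divide `|G|`, two elements of order `p` are conjugate up to a power -/
theorem conj_pow_of_exact {G : Type*} [Group G] [Finite G] {p : ℕ} (hp : p.Prime) (h : ¬ p ^ 2 ∣ Nat.card G) {x y : G}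
    (hx : orderOf x = p) (hy : orderOf y = p) : ∃ g : G, ∃ k : ℕ, ¬ p ∣ k ∧ y = g * x ^ k * g⁻¹ := by
  classical
  have := Fact.mk hp
  have hcx : Nat.card (Subgroup.zpowers x) = p := by rw [Nat.card_zpowers, hx]
  have hcy : Nat.card (Subgroup.zpowers y) = p := by rw [Nat.card_zpowers, hy]
  have key : ∀ H : Subgroup G, Nat.card H = p → ∃ P : Sylow p G, (P : Subgroup G) = H := by
    intro H hH
    have hpg : IsPGroup p H := IsPGroup.of_card (n := 1) (by rw [hH, pow_one])
    obtain ⟨P, hP⟩ := hpg.exists_le_sylow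
    refine ⟨P, ?_⟩
    obtain ⟨n, hn⟩ := IsPGroup.iff_card.1 P.isPGroup'
    have h1 : p ^ n ∣ Nat.card G := by
      rw [← hn]
      exact Subgroup.card_subgroup_dvd_card _
    have h2 : n ≤ 1 := by
      by_contra h3
      exact h ((pow_dvd_pow p (by omega)).trans h1)
    have h4 : Nat.card (P : Subgroup G) ≤ p := by
      rw [hn]
      calc p ^ n ≤ p ^ 1 := Nat.pow_le_pow_right hp.pos h2
        _ = p := pow_one p
    exact (Subgroup.eq_of_le_of_card_ge hP (by rw [hH]; exact h4)).symm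
  obtain ⟨P, hP⟩ := key _ hcx
  obtain ⟨Q, hQ⟩ := key _ hcy
  obtain ⟨g, hg⟩ := MulAction.exists_smul_eq G P Q
  have h1 : y ∈ (Q : Subgroup G) := by
    rw [hQ]
    exact Subgroup.mem_zpowers y
  rw [← hg, Sylow.coe_subgroup_smul, hP] at h1
  rw [Subgroup.mem_pointwise_smul_iff_inv_smul_mem] at h1
  obtain ⟨k, hk⟩ := Subgroup.mem_zpowers_iff.1 h1
  have hfin : IsOfFinOrder x := isOfFinOrder_of_finite x
  obtain ⟨m, hm⟩ : ∃ m : ℕ, x ^ m = x ^ k := by
    have h5 : x ^ k ∈ Submonoid.powers x := by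
      rw [hfin.mem_powers_iff_mem_zpowers]
      exact ⟨k, rfl⟩
    obtain ⟨m, hm⟩ := h5
    exact ⟨m, hm⟩
  have h6 : y = g * x ^ m * g⁻¹ := by
    rw [hm, hk]
    simp [MulAut.smul_def, MulAut.conj_apply, mul_assoc]
  refine ⟨g, m, fun h7 => ?_, h6⟩
  have h8 : x ^ m = 1 := by
    rw [← orderOf_dvd_iff_pow_eq_one, hx]
    exact h7
  rw [h8, mul_one, mul_inv_cancel] at h6
  rw [h6, orderOf_one] at hy
  exact hp.one_lt.ne hy

/-- `127²` does not divide `|E8(2)|` -/
theorem not_sq_dvd {F : Type u} [Field F] [Finite F] (hF : Nat.card F = 2) :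
    ¬ 127 ^ 2 ∣ Nat.card ↥(Lie.chevE8.group F) := by
  let _ : Fintype F := Fintype.ofFinite F
  have hF' : Fintype.card F = 2 := by rw [← Nat.card_eq_fintype_card, hF]
  rw [Cfsg.Agent.S1065.result hF']
  norm_num

/-- **two elements of order `127` of `E8(2)` are conjugate up to a power** -/
theorem conj_pow_127 {F : Type u} [Field F] [Finite F] (hF : Nat.card F = 2) {x y : ↥(Lie.chevE8.group F)}
    (hx : orderOf x = 127) (hy : orderOf y = 127) :
    ∃ g : ↥(Lie.chevE8.group F), ∃ k : ℕ, ¬ 127 ∣ k ∧ y = g * x ^ k * g⁻¹ :=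
  conj_pow_of_exact (by norm_num) (not_sq_dvd hF) hx hy

end Cfsg.Agent.H422.TW
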